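/-
BLK/KB4 (S4615, `k(B₀) = 4`, `l(B₀) = 2` give `|P| = 5`): definitions.
-/
import Mathlib
import Cfsg.Agent.BLK.PrincFS

set_option autoImplicit false

open Cfsg CL.Char CL.Blk

namespace CL.KB4

/-- the integral contribution `|G|_p ⟨χ, ψ⟩_{reg}` -/
noncomputable def cn {G : Type*} [Group G] [Fintype G] (p : ℕ) (χ ψ : IrrCharacter G) : ℤ :=
  cz p ((Nat.card G).factorization p) χ.1 ψ.1

/-- the arithmetic of the contribution matrix `A` and the degrees `x` -/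
structure Dat (p q : ℤ) (A : Fin 4 → Fin 4 → ℤ) (x : Fin 4 → ℤ) : Prop where
  sym : ∀ i j, A i j = A j i
  sq : ∀ i j, ∑ k, A i k * A k j = q * A i j
  tr : ∑ i, A i i = 2 * q
  nd : ¬ p ∣ A 0 0
  x0 : x 0 = 1
  xp : ∀ i, 0 < x i
  deg : ∀ i, ∑ k, A i k * x k = q * x i
  cg : ∀ i j, ∃ u z : ℤ, ¬ p ∣ u ∧ u * (A i j - x i * A 0 j) = x i * p * z
  gc : ∀ l : ℤ, (∀ i, i ≠ 0 → l ∣ A 0 i) → ∀ i j, l ∣ A i j - if i = j then A 0 0 else 0

/-- `e` enumerates the principal block, starting with the trivial character -/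
structure En {G : Type*} [Group G] [Finite G] (M : Ideal AlgInt) (e : Fin 4 → IrrCharacter G) : Prop where
  inj : Function.Injective e
  mem : ∀ χ, χ ∈ principalBlock M G ↔ ∃ i, e i = χ
  e0 : e 0 = Blk.irrOne G

end CL.KB4
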